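import Cfsg.Agent.H888.C6.ClDeg
import Cfsg.Agent.H912.BdOrth2
import Cfsg.Agent.H175.BdSp
import Cfsg.Agent.H175.BdSU
import Cfsg.Agent.H175.BdSL

/-!
# S5651/S5703: cross characteristic classical groups of large natural degree (helper269, for helper888)
-/

set_option autoImplicit false

universe u v

namespace Cfsg.Agent.H269.C6Cross

open Cfsg Cfsg.Agent.H888.C6 Cfsg.Agent.H912.Bd

/-- numerics -/
theorem two_pow_gt (k : ℕ) (hk : 6 ≤ k) : 4 * k + 12 < 2 ^ k := by
  induction k, hk using Nat.le_induction with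
  | base => norm_num
  | succ k hk ih => rw [pow_succ]; omega

theorem pow_gt {q k : ℕ} (hq : 2 ≤ q) (hk : 6 ≤ k) : 4 * k + 12 < q ^ k :=
  (two_pow_gt k hk).trans_le (Nat.pow_le_pow_left hq k)

/-- A classical group in characteristic `s` of natural degree at least `n ≥ 16` has no projective
representation of degree `n` in characteristic prime to `s`. -/
theorem cross {n s : ℕ} (hn : 16 ≤ n) (hs : s.Prime) (_h2 : s ≠ 2) {T : Type v} [Group T]
    (hT : ClDeg n s T) {F : Type u} [Field F] (hsF : (s : F) ≠ 0) (h : H912.Bd.PR F n s T) :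
    False := by
  rcases hT with ⟨K, _, _, _, d, hd, ⟨e⟩⟩ | ⟨K, _, _, _, d, q, hq, hd, ⟨e⟩⟩ | ⟨K, _, _, _, m, hm, ⟨e⟩⟩ |
    ⟨K, _, _, _, m, hm, ⟨e⟩⟩ | ⟨K, _, _, _, m, hm, ⟨e⟩⟩ | ⟨K, _, _, _, m, a, b, hm, -, ⟨e⟩⟩
  · have h1 := H175.BdSL.bd_psl (F := F) hs (K := K) rfl (m := d) (by omega) hsF e n h
    have h3 := pow_gt (q := Fintype.card K) (k := d - 1) Fintype.one_lt_card (by omega)
    omega
  · have hq2 : 2 ≤ q := by
      by_contra hcon
      have h3 : q ^ 2 ≤ 1 ^ 2 := Nat.pow_le_pow_left (by omega) 2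
      have h4 : 1 < Fintype.card K := Fintype.one_lt_card
      omega
    have h1 := H175.BdSU.bd_psu (F := F) hs hq (n := d) (by omega) hsF e n h
    have h3 := pow_gt (q := q) (k := d - 2) hq2 (by omega)
    have h4 : 1 * q ^ (d - 2) ≤ (q - 1) * q ^ (d - 2) := Nat.mul_le_mul_right _ (by omega)
    omega
  · have h1 := H175.BdSp.bd_psp (F := F) hs (K := K) rfl (m := m) (by omega) hsF e n h
    have h3 := pow_gt (q := Fintype.card K) (k := m) Fintype.one_lt_card (by omega)
    omega
  · have h1 := bd_pomega_odd_sl (F := F) hs hsF (K := K) inferInstance (m := m) (by omega) n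
      (h.sub e.symm.toMonoidHom e.symm.injective)
    have h3 := pow_gt (q := Fintype.card K) (k := m - 1) Fintype.one_lt_card (by omega)
    omega
  · have h1 := bd_pomega_plus_sl (F := F) hs hsF (K := K) inferInstance (m := m) (by omega) n
      (h.sub e.symm.toMonoidHom e.symm.injective)
    have h3 := pow_gt (q := Fintype.card K) (k := m - 1) Fintype.one_lt_card (by omega)
    omega
  · have h1 := bd_pomega_minus_sl (F := F) hs hsF (K := K) inferInstance (m := m - 1) (by omega) a b n
      (h.sub e.symm.toMonoidHom e.symm.injective)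
    have h3 := pow_gt (q := Fintype.card K) (k := m - 1 - 1) Fintype.one_lt_card (by omega)
    omega

end Cfsg.Agent.H269.C6Cross
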